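import Cfsg.Agent.H903.TC.Large
import Cfsg.Agent.H58.Ore.BThree

/-!
# The 3-elements of the Baby Monster are commutators with an element of order 23 (S4173, piece B6; helper459)
-/

set_option autoImplicit false

namespace Cfsg.Agent.H459.TC

open Cfsg Cfsg.Agent.H903.TC

universe u

/-- **B6**: from `Fi₂₃`. -/
theorem three_B (hF : ∀ g : Spor.Fi23, g ≠ 1 → CC 23 g) {L : Type u} [Group L] (h : Spor.IsoB L) {s : L} {k : ℕ}
    (hs : s ^ 3 ^ k = 1) (hs1 : s ≠ 1) : CC 23 s := by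
  obtain ⟨f, hf, h2⟩ := Cfsg.Agent.H58.Ore.BThree.conj_fi23 h
  obtain ⟨g, a, ha⟩ := h2 s k hs
  have ha1 : a ≠ 1 := by
    rintro rfl
    rw [map_one] at ha
    apply hs1
    calc s = g * (g⁻¹ * s * g) * g⁻¹ := by group
      _ = 1 := by rw [ha]; group
  obtain ⟨x, c, hx, e⟩ := hF a ha1
  have h3 : CC 23 (f a) := ⟨f x, f c, by rw [orderOf_injective f hf, hx], by rw [e]; simp only [map_mul, map_inv]⟩
  rw [← ha] at h3
  exact CC.of_conj (x := g⁻¹) (by rwa [inv_inv])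

/-- elements of order `r` form at most two classes, those of `x` and `x⁻¹`: fixed classes -/
theorem three_B_fixed (hF : ∀ g : Spor.Fi23, g ≠ 1 → CC 23 g) {L : Type u} [Group L] (h : Spor.IsoB L) {x : L}
    (hx : ∀ a : L, orderOf a = 23 → IsConj x a ∨ IsConj x⁻¹ a) {s : L} {k : ℕ}
    (hs : s ^ 3 ^ k = 1) (hs1 : s ≠ 1) : ∃ u v : L, s = (u * x * u⁻¹) * (v * x⁻¹ * v⁻¹) :=
  (three_B hF h hs hs1).fixed hx

end Cfsg.Agent.H459.TC
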